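import Cfsg.Agent.H134.StrP.Two
import Cfsg.Agent.KFacts.RgdFiltChev
import Cfsg.Agent.TitsThree.KExcTab

/-!
# `E₈(2)` has no strongly `p`-embedded subgroup, `p = 3, 5, 7` (hub H9, helper941)

Two commuting Levi factors of order divisible by `p`.
-/

set_option autoImplicit false

namespace Cfsg.Agent.H941.E8Two

open Cfsg CoxeterSystem Cfsg.Agent.ChevalleyStructure.CoxeterGeom Cfsg.Agent.ChevalleyStructure.CoxeterGeomTypes
  Cfsg.Agent.Tits.Roots Cfsg.Agent.Tits.Core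
  Cfsg.Agent.Nodes.Reps Cfsg.Agent.Nodes.BNOf Cfsg.Agent.Nodes.StabComb Cfsg.Agent.Nodes.RGDChev
  Cfsg.Agent.Nodes.LeviDec Cfsg.Agent.ChevalleyStructure.Elts
  Cfsg.Agent.H35.ExcIdx Cfsg.Agent.H818.StrP Cfsg.Agent.H134.StrP Cfsg.Lie Cfsg.Agent.Nodes

universe u

variable {F : Type u} [Field F] [Fintype F]

theorem exists_not_comm {G : Type*} [Group G] [Finite G] [IsSimpleGroup G] {p q : ℕ} (hp : p.Prime) (hq : q.Prime)
    (hpq : p ≠ q) (h1 : p ∣ Nat.card G) (h2 : q ∣ Nat.card G) : ∃ a b : G, a * b ≠ b * a := by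
  by_contra hcon
  push Not at hcon
  let _ : CommGroup G := { (inferInstance : Group G) with mul_comm := hcon }
  have h3 : (Nat.card G).Prime := IsSimpleGroup.prime_card
  have e1 := (Nat.prime_dvd_prime_iff_eq hp h3).1 h1
  have e2 := (Nat.prime_dvd_prime_iff_eq hq h3).1 h2
  exact hpq (e1.trans e2.symm)

theorem TT_eq_bot (h2 : Fintype.card F = 2) : TT chevE8 F = ⊥ := by
  have h1 := Cfsg.Agent.S1035.result h2 (chevE8, 1) (by simp)
  have h3 : Nat.card (TT chevE8 F) = Nat.card (chevE8.diagonalSubgroup F) :=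
    Nat.card_congr (Subgroup.subgroupOfEquivOfLe (diagonal_le_group hpE8.inList F)).toEquiv
  rw [← Subgroup.card_eq_one, h3]
  simpa using h1

theorem card_P (h2 : Fintype.card F = 2) [CharP F 2] {C : List (Fin 8)}
    (hP : PathOK CoxeterMatrix.E₈ C C [] 0) :
    Nat.card ↥(PJ CoxeterMatrix.E₈.toCoxeterSystem hpE8.isCartan (TT chevE8 F) (XX chevE8 8 F) {j | j ∈ C}) =
      FA C.length 2 * 1 *
        Nat.card ↥(RGD.B CoxeterMatrix.E₈.toCoxeterSystem hpE8.isCartan (TT chevE8 F) (XX chevE8 8 F)) := by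
  have hfin := finite_W hpE8 CoxeterMatrix.E₈.toCoxeterSystem
  have : Fact (Nat.Prime 2) := ⟨Nat.prime_two⟩
  have R := rgd (K := F) hpE8 CoxeterMatrix.E₈.toCoxeterSystem 2
  have hc : ∀ i, Nat.card (XX chevE8 8 F (sr i)) = 2 := fun i => by
    rw [card_XX hpE8 F CoxeterMatrix.E₈.toCoxeterSystem (isRoot_sr _ _ i), Nat.card_eq_fintype_card, h2]
  exact card_step R hP (fun i _ => hc i) (card_nil R)

theorem path_0 : PathOK CoxeterMatrix.E₈ [0] [0] [] 0 := by constructor <;> decide +kernel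
theorem path_1 : PathOK CoxeterMatrix.E₈ [1] [1] [] 0 := by constructor <;> decide +kernel
theorem path_02 : PathOK CoxeterMatrix.E₈ [0, 2] [0, 2] [] 0 := by constructor <;> decide +kernel
theorem path_45 : PathOK CoxeterMatrix.E₈ [4, 5] [4, 5] [] 0 := by constructor <;> decide +kernel
theorem path_0231 : PathOK CoxeterMatrix.E₈ [0, 2, 3, 1] [0, 2, 3, 1] [] 0 := by constructor <;> decide +kernel
theorem path_567 : PathOK CoxeterMatrix.E₈ [5, 6, 7] [5, 6, 7] [] 0 := by constructor <;> decide +kernel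

theorem orth_0_1 : ∀ i j : Fin 8, i ∈ ([0] : List (Fin 8)) → j ∈ ([1] : List (Fin 8)) →
    CoxeterMatrix.E₈ i j = (2 : ℕ) := by
  intro i j hi hj
  simp only [List.mem_cons, List.not_mem_nil, or_false] at hi hj
  subst hi hj
  decide +kernel

theorem orth_02_45 : ∀ i j : Fin 8, i ∈ ([0, 2] : List (Fin 8)) → j ∈ ([4, 5] : List (Fin 8)) →
    CoxeterMatrix.E₈ i j = (2 : ℕ) := by
  intro i j hi hj
  simp only [List.mem_cons, List.not_mem_nil, or_false] at hi hj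
  rcases hi with rfl | rfl <;> rcases hj with rfl | rfl <;> decide +kernel

theorem orth_0231_567 : ∀ i j : Fin 8, i ∈ ([0, 2, 3, 1] : List (Fin 8)) → j ∈ ([5, 6, 7] : List (Fin 8)) →
    CoxeterMatrix.E₈ i j = (2 : ℕ) := by
  intro i j hi hj
  simp only [List.mem_cons, List.not_mem_nil, or_false] at hi hj
  rcases hi with rfl | rfl | rfl | rfl <;> rcases hj with rfl | rfl | rfl <;> decide +kernel

theorem key {p : ℕ} [hp : Fact p.Prime] (hp2 : p ≠ 2) (h2 : Fintype.card F = 2) [IsSimpleGroup ↥(chevE8.group F)]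
    {C₁ C₂ : List (Fin 8)} (hP₁ : PathOK CoxeterMatrix.E₈ C₁ C₁ [] 0) (hP₂ : PathOK CoxeterMatrix.E₈ C₂ C₂ [] 0)
    (hM : ∀ i j : Fin 8, i ∈ C₁ → j ∈ C₂ → CoxeterMatrix.E₈ i j = (2 : ℕ)) (hk : ∃ k, k ∉ C₁ ∧ k ∉ C₂)
    (hd₁ : p ∣ FA C₁.length 2) (hd₂ : p ∣ FA C₂.length 2) : NoSP p ↥(chevE8.group F) := by
  have : Fact (Nat.Prime 2) := ⟨Nat.prime_two⟩
  have hch : CharP F 2 := by
    obtain ⟨c, hc⟩ := CharP.exists F
    obtain ⟨n, hcp, hn⟩ := FiniteField.card F c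
    have : c = 2 := by
      rw [h2] at hn
      have h3 : c ∣ 2 := by rw [hn]; exact dvd_pow_self _ n.2.ne'
      exact (Nat.prime_dvd_prime_iff_eq hcp Nat.prime_two).1 h3
    rw [← this]
    exact hc
  have hfin := finite_W hpE8 CoxeterMatrix.E₈.toCoxeterSystem
  have R := rgd (K := F) hpE8 CoxeterMatrix.E₈.toCoxeterSystem 2
  have e1 := card_P h2 hP₁
  have e2 := card_P h2 hP₂
  have hp1 : p ∣ Nat.card ↥(PJ CoxeterMatrix.E₈.toCoxeterSystem hpE8.isCartan (TT chevE8 F) (XX chevE8 8 F)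
      {j | j ∈ C₁}) := by
    rw [e1, mul_one]
    exact Dvd.dvd.mul_right hd₁ _
  have hp2' : p ∣ Nat.card ↥(PJ CoxeterMatrix.E₈.toCoxeterSystem hpE8.isCartan (TT chevE8 F) (XX chevE8 8 F)
      {j | j ∈ C₂}) := by
    rw [e2, mul_one]
    exact Dvd.dvd.mul_right hd₂ _
  have hcard : 2 ∣ Nat.card ↥(chevE8.group F) := by
    rw [Cfsg.Agent.S1065.result h2]
    norm_num
  refine noSP_of_two R (KFacts.RgdFiltChev.hasFilt_E8 F 2)
    (exists_not_comm hp.out Nat.prime_two hp2 (hp1.trans (Subgroup.card_subgroup_dvd_card _)) hcard) hp2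
    (TT_eq_bot h2) Cfsg.Agent.Tits.Ext.simple_injective (J₁ := {j | j ∈ C₁}) (J₂ := {j | j ∈ C₂})
    (J := {j | j ∈ C₁ ∨ j ∈ C₂}) (fun i hi => Or.inl hi) (fun i hi => Or.inr hi) ?_
    (fun i hi j hj => hM i j hi hj) hp1 hp2'
  obtain ⟨k, hk1, hk2⟩ := hk
  exact ⟨k, fun h => h.elim hk1 hk2⟩

/-- **`E₈(2)`, `p = 3, 5, 7`.** -/
theorem noSP {p : ℕ} [hp : Fact p.Prime] (h2 : Fintype.card F = 2) (hp3 : p = 3 ∨ p = 5 ∨ p = 7) :
    NoSP p ↥(chevE8.group F) := by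
  have := Cfsg.Agent.TitsThree.KExcBase.simpleE8 F
  rcases hp3 with rfl | rfl | rfl
  · exact key (by norm_num) h2 path_0 path_1 orth_0_1 ⟨2, by decide⟩ (by decide +kernel) (by decide +kernel)
  · exact key (by norm_num) h2 path_0231 path_567 orth_0231_567 ⟨4, by decide⟩ (by decide +kernel)
      (by decide +kernel)
  · exact key (by norm_num) h2 path_02 path_45 orth_02_45 ⟨1, by decide⟩ (by decide +kernel) (by decide +kernel)

end Cfsg.Agent.H941.E8Two
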